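import Cfsg.Agent.H92.W3C

/-!
Width three: a reflection outside a subgroup of index two is impossible.
-/

set_option autoImplicit false

namespace Cfsg.Agent.H99.W3

open Subgroup Cfsg.Agent.H49 Cfsg.Agent.H69.XV Cfsg.Agent.H69.XV.VD Cfsg.Agent.H92.Lx Cfsg.Agent.H92.W3

universe u

variable {G : Type u} [Group G] [Finite G] {V : Type*} [AddCommGroup V] [Module (ZMod 2) V] {z : G}

section
variable {Q : Subgroup G} {d : VD Q z V} {v : V} {x : G} (hv : d.q v = 1) (xz : x * z = z * x)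
  (hρ : ∀ y, d.ρ x y = y + d.B y v • v)

omit [Finite G] in
include hv in
theorem v_ne : v ≠ 0 := fun e => by rw [e, d.q_zero] at hv; exact absurd hv (by decide)

include xz hρ

theorem sq_mem : x * x ∈ Q := d.mem_of_ρ (cmul xz xz) fun w => by
  rw [d.ρ_mul xz xz, hρ, hρ, B_addl, B_smull, d.B_self]; ch2r

theorem p_sq {y : G} (hy : y ∈ Q) : d.p (x * y * (x * y)) = d.p (x * x) + d.B (d.p y) v • v := by
  have h1 := d.ρ_p (cinv xz) hy
  have h2 := d.lx.conj_mem (cinv xz) hy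
  rw [show x * y * (x * y) = x * x * (x⁻¹ * y * x⁻¹⁻¹ * y) by group, d.p_mul (sq_mem xz hρ) (mul_mem h2 hy),
    d.p_mul h2 hy, ← h1, ρ_inv_sq xz (sq_mem xz hρ), hρ]
  ch2r

omit [Finite G] in
theorem rf_mul {y : G} (hy : y ∈ Q) (w : V) : d.ρ (x * y) w = w + d.B w v • v := by
  rw [d.ρ_mul xz (d.xs.cen y hy), d.ρ_Q hy, hρ]

include hv

theorem lemC (x2 : x * x = 1) {c : G} (cz : c * z = z * c) (cx : c * x = x * c)
    (hc : ∀ b ∈ Q, b * x = x * b → b * c = c * b) : c ∈ Q ∨ c * x ∈ Q := by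
  obtain ⟨e', he⟩ := exists_B_ne (d := d) (v_ne hv)
  obtain ⟨e, eQ, rfl⟩ := d.p_surj e'
  replace he := z2_ne he
  have cv : d.ρ c v = v := by
    have := d.ρ_mul cz xz (d.p e)
    rw [cx, d.ρ_mul xz cz, hρ, hρ, he, one_smul, map_add, add_right_inj] at this
    rcases z2 (d.B (d.ρ c (d.p e)) v) with k | k <;> rw [k] at this
    · exact absurd (by simpa using this.symm) (ρ_ne_zero (d := d) cz (v_ne hv))
    · simpa using this.symm
  have gQ : x * e * x⁻¹ * e⁻¹ ∈ Q := mul_mem (d.lx.conj_mem xz eQ) (inv_mem eQ)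
  have pg : d.p (x * e * x⁻¹ * e⁻¹) = v := by rw [d.p_comm xz eQ, hρ, he]; ch2
  have xg : x * (x * e * x⁻¹ * e⁻¹) * x⁻¹ = (x * e * x⁻¹ * e⁻¹)⁻¹ := by
    rw [← mul_assoc, ← mul_assoc, ← mul_assoc, x2, one_mul, inv_of_sq x2]; simp [mul_assoc, inv_of_sq x2]
  generalize x * e * x⁻¹ * e⁻¹ = g at gQ pg xg
  have gg : g * g = z := (d.xs.sq gQ).resolve_left fun k => by
    rw [← d.q_eq_zero gQ, pg, hv] at k; exact absurd k (by decide)
  have fx : ∀ u, d.B u v = 0 → d.ρ c u = u := fun u hu => by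
    obtain ⟨y, hy, rfl⟩ := d.p_surj u
    rcases (d.ρ_fix xz hy).1 (by rw [hρ, hu, zero_smul, add_zero]) with k | k
    · exact (d.ρ_fix cz hy).2 (.inl (conj_of_comm (hc y hy (comm_of_conj k))))
    · have := (d.ρ_fix cz (mul_mem hy gQ)).2 (.inl (conj_of_comm (hc _ (mul_mem hy gQ) (comm_of_conj (by
        rw [← _root_.conj_mul, k, xg, ← gg]; group)))))
      rwa [d.p_mul hy gQ, pg, map_add, cv, add_left_inj] at this
  have k : ∀ w, d.B w v = 1 → d.ρ c w = w + (d.ρ c (d.p e) + d.p e) := fun w hw => by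
    have := fx (w + d.p e) (by rw [B_addl, hw, he]; rfl)
    rw [map_add] at this
    linear_combination (norm := ch2) this
  refine (eq_of_perp_one (d := d) (s := v) (v := d.ρ c (d.p e) + d.p e) fun u hu => by
    rw [d.B_symm, B_com cz, ρ_inv_fix cz (fx u hu), add_self, map_zero]).imp
    (fun h => d.mem_of_ρ cz fun w => ?_) fun h => d.mem_of_ρ (cmul cz xz) fun w => ?_
  · rcases z2 (d.B w v) with e | e
    · exact fx w e
    · rw [k w e, h, add_zero]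
  · rw [d.ρ_mul cz xz, hρ, map_add, map_smul, cv]
    rcases z2 (d.B w v) with e | e
    · rw [fx w e, e, zero_smul, add_zero]
    · rw [k w e, h, e]; ch2

omit xz hρ in
theorem sing_perp {u : V} (hu : d.B u v = 0) : ∃ s, d.q s = 0 ∧ d.B s v = 0 ∧ ∀ m, d.B v m = 0 → d.B s m = d.B u m := by
  rcases z2 (d.q u) with e | e
  · exact ⟨u, e, hu, fun _ _ => rfl⟩
  · exact ⟨u + v, by rw [d.q_add, e, hv, hu]; rfl, by rw [B_addl, hu, d.B_self, add_zero],
      fun m hm => by rw [B_addl, hm, add_zero]⟩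

theorem exists_inv (h8 : 8 < Nat.card Q) (x2 : x * x = z) : ∃ y ∈ Q, x * y * (x * y) = 1 := by
  obtain ⟨u₁, u₂, a1, a2, a3⟩ := exists_pair_perp d h8 v
  obtain ⟨s₁, b1, b2, b3⟩ := sing_perp hv a1
  obtain ⟨s₂, c1, c2, c3⟩ := sing_perp hv a2
  have e : d.q (s₁ + s₂) ≠ 0 := by
    rwa [d.q_add, b1, c1, zero_add, zero_add, b3 _ (d.B_symm _ _ ▸ c2), d.B_symm, c3 _ (d.B_symm _ _ ▸ a1), d.B_symm]
  obtain ⟨y₁, m1, rfl⟩ := d.p_surj s₁
  obtain ⟨y₂, m2, rfl⟩ := d.p_surj s₂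
  have k : ∀ y, x * y * (x * y) = x * y * x⁻¹ * z * y := fun y => by rw [← x2]; group
  rcases (d.ρ_fix xz m1).1 (by rw [hρ, b2, zero_smul, add_zero]) with k1 | k1
  · rcases (d.ρ_fix xz m2).1 (by rw [hρ, c2, zero_smul, add_zero]) with k2 | k2
    · refine ⟨_, mul_mem m1 m2, ?_⟩
      rw [← d.p_mul m1 m2, Ne, d.q_eq_zero (mul_mem m1 m2)] at e
      rw [k, ← _root_.conj_mul, k1, k2, mul_assoc, ← d.xs.cen _ (mul_mem m1 m2), ← mul_assoc,
        (d.xs.sq (mul_mem m1 m2)).resolve_left e, d.xs.zz]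
    · exact ⟨y₂, m2, by rw [k, k2, mul_assoc y₂, d.xs.zz, mul_one, (d.q_eq_zero m2).1 c1]⟩
  · exact ⟨y₁, m1, by rw [k, k1, mul_assoc y₁, d.xs.zz, mul_one, (d.q_eq_zero m1).1 b1]⟩

end

theorem n2b (hres : pResidual 2 G = ⊤) (h : TR z) (d : VD (O2C z) z V) {K : Subgroup G} (hK : I2 z K) {r : G} {v : V}
    (rz : r * z = z * r) (hr : r ∉ K) (hv : d.q v = 1) (hρ : ∀ y, d.ρ r y = y + d.B y v • v) : False := by
  have r2 := sq_mem rz hρ
  have mv : d.B (d.p (r * r)) v = 0 := by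
    have := hρ (d.p (r * r))
    rw [d.ρ_p rz r2, show r * (r * r) * r⁻¹ = r * r by group, left_eq_add] at this
    exact (z2 _).resolve_right fun e => v_ne hv (by rwa [e, one_smul] at this)
  have hm : d.p (r * r) = 0 ∨ d.p (r * r) = v := by
    by_contra hn
    rw [not_or] at hn
    obtain ⟨u, u1, u2⟩ := exists_sep_one (d := d) hn.1 hn.2
    obtain ⟨s, s1, s2, s3⟩ := sing_perp hv u1
    rw [← s3 _ (d.B_symm _ _ ▸ mv)] at u2
    obtain ⟨c, cz, hc⟩ := h.sg' d s1 (fun e => u2 (by rw [e, map_zero, LinearMap.zero_apply])) (d.B_symm _ _ ▸ s2)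
    have cv : d.ρ c v = v := by rw [hc, d.B_symm, s2, d.B_self]; simp
    have yQ : r⁻¹ * (c * r * c⁻¹) ∈ O2C z := d.mem_of_ρ (cmul (cinv rz) (cconj cz rz)) fun w => by
      rw [d.ρ_mul (cinv rz) (cconj cz rz), ← d.ρ_ρ_inv cz w, ρ_conj' cz rz, hρ, map_add (d.ρ c), map_smul, cv,
        ← d.B_ρ cz, cv, ← hρ, d.ρ_inv_ρ rz]
    have := p_sq rz hρ yQ
    rw [mul_inv_cancel_left, _root_.conj_mul, ← d.ρ_p cz r2, hc, mv, hv, d.B_symm, z2_ne u2] at this
    have e : s = (1 + d.B (d.p (r⁻¹ * (c * r * c⁻¹))) v) • v := by linear_combination (norm := ch2r) this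
    exact u2 (by rw [e, B_smull, d.B_symm v, mv, mul_zero])
  obtain ⟨y, hy, x2⟩ : ∃ y ∈ O2C z, r * y * (r * y) = 1 := by
    obtain ⟨y, hy, e⟩ : ∃ y ∈ O2C z, d.p (r * y * (r * y)) = 0 := by
      rcases hm with e | e
      · exact ⟨1, one_mem _, by rwa [mul_one]⟩
      · obtain ⟨w, hw⟩ := exists_B_ne (d := d) (v_ne hv)
        obtain ⟨y, hy, rfl⟩ := d.p_surj w
        exact ⟨y, hy, by rw [p_sq rz hρ hy, e, z2_ne hw, one_smul, add_self]⟩
    have xz := cmul rz (d.xs.cen y hy)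
    rcases (d.p_eq_zero (sq_mem xz (rf_mul rz hρ hy))).1 e with e | e
    · exact ⟨y, hy, e⟩
    · obtain ⟨y', hy', e⟩ := exists_inv hv xz (rf_mul rz hρ hy) (by rw [h.card]; norm_num) e
      exact ⟨y * y', mul_mem hy hy', by rwa [← mul_assoc r y]⟩
  have xz := cmul rz (d.xs.cen y hy)
  have xK : r * y ∉ K := fun e => hr ((K.mul_mem_cancel_right (hK.Q hy)).1 e)
  have xρ := rf_mul rz hρ hy
  generalize r * y = x at x2 xz xK xρ
  obtain ⟨s, s1, s2, s3, s4, s5⟩ := hK.exists_outer hres xz xK (.inl x2)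
  have sx := (lemC hv xz xρ x2 s2 s4 s5).resolve_left s3
  have ss := s1.sq h.lx.zz
  refine hK.out_false h.card.ge s1 s2 (fun e => xK ((K.mul_mem_cancel_left e).1 (hK.Q sx))) (fun k k1 k2 k3 =>
    h.all k k1 ((d.xs.sq k1).resolve_right fun e => ?_) k3) fun c => lemC hv s2 (fun w => ?_) ss
  · rcases (h.lx.O2C_conj s1).toXS.sq k2 with e' | e'
    · exact h.lx.ne (e ▸ e')
    · exact s3 (e' ▸ e ▸ h.lx.mem)
  · rw [← xρ, ← d.ρ_Q sx (d.ρ x w), ← d.ρ_mul (cmul s2 xz) xz, mul_assoc, x2, mul_one]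

end Cfsg.Agent.H99.W3
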